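import Cfsg.Agent.Lib.SporPres.Suz.Index22880

/-! # The subgroups of the presented group named by their generators -/

set_option autoImplicit false

namespace Cfsg.Agent.Lib.SporPres.Suz

open Cfsg.Spor.Suz

theorem sub_six_eq : ((Subgroup.closure ({a, b, c, d, e, f} : Set (FreeGroup Gen))).map
    (PresentedGroup.mk (Cfsg.Spor.coxRelators edges ∪ {r | r ∈ extra}))) = sub 6 := by
  rw [MonoidHom.map_closure]
  refine congrArg _ ?_
  ext x
  simp only [Set.mem_image, Set.mem_insert_iff, Set.mem_singleton_iff, Set.mem_Iio]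
  constructor
  · rintro ⟨y, (rfl | rfl | rfl | rfl | rfl | rfl), rfl⟩
    exacts [⟨0, by omega, rfl⟩, ⟨1, by omega, rfl⟩, ⟨2, by omega, rfl⟩, ⟨3, by omega, rfl⟩,
      ⟨4, by omega, rfl⟩, ⟨5, by omega, rfl⟩]
  · rintro ⟨k, hk, rfl⟩
    interval_cases k
    exacts [⟨a, by simp, rfl⟩, ⟨b, by simp, rfl⟩, ⟨c, by simp, rfl⟩, ⟨d, by simp, rfl⟩,
      ⟨e, by simp, rfl⟩, ⟨f, by simp, rfl⟩]

theorem sub_six_g_eq : ((Subgroup.closure ({a, b, c, d, f, g} : Set (FreeGroup Gen))).map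
    (PresentedGroup.mk (Cfsg.Spor.coxRelators edges ∪ {r | r ∈ extra}))) =
      Subgroup.closure (φL lettersSix '' Set.Iio 6) := by
  rw [MonoidHom.map_closure]
  refine congrArg _ ?_
  ext x
  simp only [Set.mem_image, Set.mem_insert_iff, Set.mem_singleton_iff, Set.mem_Iio]
  constructor
  · rintro ⟨y, (rfl | rfl | rfl | rfl | rfl | rfl), rfl⟩
    exacts [⟨0, by omega, rfl⟩, ⟨1, by omega, rfl⟩, ⟨2, by omega, rfl⟩, ⟨3, by omega, rfl⟩,
      ⟨4, by omega, rfl⟩, ⟨5, by omega, rfl⟩]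
  · rintro ⟨k, hk, rfl⟩
    interval_cases k
    exacts [⟨a, by simp, rfl⟩, ⟨b, by simp, rfl⟩, ⟨c, by simp, rfl⟩, ⟨d, by simp, rfl⟩,
      ⟨f, by simp, rfl⟩, ⟨g, by simp, rfl⟩]

theorem exists_suborbits : ∃ q₁ q₂ : Cfsg.Spor.Suz ⧸ sub 6,
    (MulAction.orbit (sub 6) q₁).ncard = 416 ∧ (MulAction.orbit (sub 6) q₂).ncard = 1365 := by
  have h : orb0.2.length + 1 = 1365 ∧ orb1.2.length + 1 = 416 ∧
      orb0.1 < tab.size ∧ orb1.1 < tab.size := by decide +kernel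
  obtain ⟨q0, h0⟩ := exists_orbit_card (o := orb0) (by simp [orbs]) h.2.2.1
  obtain ⟨q1, h1⟩ := exists_orbit_card (o := orb1) (by simp [orbs]) h.2.2.2
  exact ⟨q1, q0, h1.trans h.2.1, h0.trans h.1⟩

end Cfsg.Agent.Lib.SporPres.Suz
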