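import Cfsg.Agent.Lib.SporPres.Suz.S162Part0

/-! # Generated coset enumeration data: S162 -/

set_option autoImplicit false

namespace Cfsg.Agent.Lib.SporPres.Suz.S162

open Cfsg.Agent.Lib.Coset

variable {Γ : Type*} [Group Γ] {φ : ℕ → Γ} {K : Subgroup Γ}

theorem facts_hold (M : Cert.Model cert φ K) : ∀ j < cert.nfacts, cert.Holds φ K j := by
  have h : ∀ j < 0, cert.Holds φ K j := fun j hj => absurd hj (Nat.not_lt_zero j)
  have h : ∀ j < 512, cert.Holds φ K j := fun j hj =>
    Cert.blockOK_spec M h proofsB0_ok j (by rw [proofsB0_len]; omega)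
  have h : ∀ j < 877, cert.Holds φ K j := fun j hj =>
    Cert.blockOK_spec M h proofsB512_ok j (by rw [proofsB512_len]; omega)
  exact h

theorem edges_hold (M : Cert.Model cert φ K) :
    ∀ e < 972, cert.EdgeHolds φ K tab ord (e / tab.gens) (e % tab.gens) := by
  intro e he
  by_cases h0 : e < 512
  · exact Cert.edgesOK_spec M (facts_hold M) proofsE0_ok e (by omega) (by rw [proofsE0_len]; omega)
  exact Cert.edgesOK_spec M (facts_hold M) proofsE512_ok e (by omega) (by rw [proofsE512_len]; omega)

/-- Every element is in one of the cosets. -/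
theorem covers (M : Cert.Model cert φ K) : ∀ x ∈ Subgroup.closure (φ '' Set.Iio 6),
    ∃ i < 162, x * (cert.pt φ (nodeOf ord i))⁻¹ ∈ K :=
  Cert.cover (P := tab) (ord := ord) M.inv rfl (by decide +kernel) (by decide +kernel)
    (fun e he => edges_hold M e he)

end Cfsg.Agent.Lib.SporPres.Suz.S162
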