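import Cfsg.Agent.Lib.SporPres.Suz.Order
import Cfsg.Agent.Lib.SporPres.Suz.S56
import Cfsg.Agent.Lib.SporPres.Suz.S162
import Cfsg.Agent.Lib.SporPres.Suz.OrbitsM

/-! # The subgroup on six generators of index 22880 -/

set_option autoImplicit false

namespace Cfsg.Agent.Lib.SporPres.Suz

open Cfsg.Agent.Lib.Coset

/-- The letters of the intermediate subgroup. -/
def lettersFive : List ℕ := [0, 1, 2, 3, 6]

/-- The letters of the subgroup. -/
def lettersSix : List ℕ := [0, 1, 2, 3, 5, 6]

/-- The generators selected by a list of letters. -/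
noncomputable def φL (L : List ℕ) (k : ℕ) : Cfsg.Spor.Suz := φ (L.getD k 0)

/-- The relator that follows from the given ones. -/
def extraWord : List ℕ := Coset.rep 5 [0, 1, 2, 6]

theorem extraWord_eq_one : ev φ extraWord = 1 :=
  ev_eq_one_of_fix act_φ card_and_inj.2 (by decide +kernel) <| by
    have h : ∀ i < tab.size, ∀ w ∈ [extraWord], tab.app w i = i :=
      Tab.relOK_spec (B := 1000) (by norm_num) fun k hk => by
        have hk' : k < 2 := by
          have : tab.size = 1782 := rfl
          omega
        interval_cases k <;> decide +kernel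
    exact fun i hi => h i hi _ (by simp)

theorem ev_φL (L : List ℕ) (w : List ℕ) : ev (φL L) w = ev φ (w.map fun k => L.getD k 0) := by
  rw [ev, ev, List.map_map]; rfl

theorem modelL {C : Cert} {L : List ℕ} {k : ℕ}
    (hr : (C.rels.all fun r => isRot (extraWord :: pres.base) (r.map fun k => L.getD k 0)) = true)
    (hs : lettersBelow k C.subs = true) :
    Cert.Model C (φL L) (Subgroup.closure (φL L '' Set.Iio k)) := by
  refine ⟨fun g _ => pres.φ_inv _, fun r hr' => ?_, mem_closure_letters hs⟩
  rw [ev_φL]
  refine ev_rot (fun w hw => ?_) (List.all_eq_true.1 hr r hr')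
  rcases List.mem_cons.1 hw with rfl | hw
  · exact extraWord_eq_one
  · exact pres.base_eq_one w hw

theorem image_φL {L L' : List ℕ} {k : ℕ} (h : ∀ i < k, L.getD i 0 = L'.getD i 0) :
    φL L '' Set.Iio k = φL L' '' Set.Iio k :=
  Set.image_congr fun i hi => by rw [φL, φL, h i hi]

theorem six_le : (Subgroup.closure (φL lettersSix '' Set.Iio 6) : Set Cfsg.Spor.Suz).Finite ∧
    Nat.card (Subgroup.closure (φL lettersSix '' Set.Iio 6)) ≤ 19595520 := by
  have h2 := card_step (card_bot φ) (S10.covers m10)
  have h4 := card_step h2 (S216.covers m216)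
  have e4 : φ '' Set.Iio 4 = φL lettersFive '' Set.Iio 4 := Set.image_congr fun i hi => by
    have : lettersFive.getD i 0 = i := by
      rw [Set.mem_Iio] at hi; interval_cases i <;> rfl
    rw [φL, this]
  rw [e4] at h4
  have h5 := card_step h4
    (S56.covers (modelL (L := lettersFive) (by decide +kernel) (k := 4) (by decide +kernel)))
  have hcov := S162.covers (Γ := Cfsg.Spor.Suz) (φ := φL lettersSix)
    (K := Subgroup.closure (φL lettersFive '' Set.Iio 5))
    ⟨fun g _ => pres.φ_inv _, (modelL (L := lettersSix) (C := S162.cert) (k := 6) (by decide +kernel)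
      (by decide +kernel)).rels, fun s hs => by
      have hall : S162.cert.subs.all (fun w => w.all fun a =>
          [0, 1, 2, 3, 5].contains a) = true := by decide +kernel
      simp only [List.all_eq_true, List.contains_iff_mem] at hall
      refine ev_mem_closure _ fun a ha => ?_
      have := hall s hs a ha
      fin_cases this
      · exact Subgroup.subset_closure ⟨0, by simp, rfl⟩
      · exact Subgroup.subset_closure ⟨1, by simp, rfl⟩
      · exact Subgroup.subset_closure ⟨2, by simp, rfl⟩
      · exact Subgroup.subset_closure ⟨3, by simp, rfl⟩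
      · exact Subgroup.subset_closure ⟨4, by simp, rfl⟩⟩
  exact ⟨(card_le_of_cover h5.1 hcov).1,
    (card_le_of_cover h5.1 hcov).2.trans (Nat.mul_le_mul le_rfl h5.2)⟩

theorem chainM_ok : tab.chainOK chainM = true := by decide +kernel

theorem chainM_letters :
    (chainM.all fun l => l.2.1.all fun w => w.all fun a => lettersSix.contains a) = true := by
  decide +kernel

theorem index_six_g : (Subgroup.closure (φL lettersSix '' Set.Iio 6)).index = 22880 := by
  obtain ⟨-, hle⟩ := six_le
  have hge : 19595520 ≤ Nat.card (Subgroup.closure (φL lettersSix '' Set.Iio 6)) := by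
    rw [← Subgroup.card_map_of_injective card_and_inj.2]
    rw [← show Tab.chainCard chainM = 19595520 by decide +kernel]
    refine tab.chain_spec good chainM_ok fun l hl w hw => ?_
    have hlt := List.all_eq_true.1 chainM_letters l hl
    simp only [List.all_eq_true, List.contains_iff_mem] at hlt
    refine ⟨ev φ w, ev_mem_closure φ fun a ha => ?_, ?_⟩
    · obtain ⟨i, hi, rfl⟩ := List.getElem_of_mem (hlt w hw a ha)
      exact Subgroup.subset_closure ⟨i, hi, by rw [φL, List.getD_eq_getElem _ _ hi]⟩
    · rw [ev_comp, ev, ev, List.map_congr_left (f := ⇑act ∘ φ) (g := tab.perm good) fun a ha => act_φ a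
        (by have := hlt w hw a ha; fin_cases this <;> decide)]
  have h := Subgroup.index_mul_card (Subgroup.closure (φL lettersSix '' Set.Iio 6))
  rw [card_and_inj.1, le_antisymm hle hge] at h
  exact Nat.eq_of_mul_eq_mul_right (by norm_num : 0 < 19595520)
    (h.trans (by norm_num : 448345497600 = 22880 * 19595520))

end Cfsg.Agent.Lib.SporPres.Suz
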